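import Cfsg.Agent.Lib.Helper13.Asch.Main

set_option autoImplicit false

namespace Cfsg.Agent.Lib.Helper68.AschMain

open Cfsg Cfsg.Geo Matrix Cfsg.Agent.Lib.Helper13.Asch
open scoped Kronecker MatrixGroups

variable {F : Type*} [Field F]

theorem main [Fintype F] (n : ℕ) (hn : 3 ≤ n) (H : Subgroup (GL (Fin n) F)) :
    Cls n H ∨ InLinearResidualClass H := Cfsg.Agent.Lib.Helper13.Asch.main n hn H

end Cfsg.Agent.Lib.Helper68.AschMain
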