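import Cfsg.Agent.Lib.Helper13.Asch.Defs3
import Cfsg.Agent.Lib.Helper58.Asch.D1
import Cfsg.Agent.Lib.Helper58.Asch.D1c
import Cfsg.Agent.Lib.Helper58.Asch.D6
import Cfsg.Agent.Lib.Helper73.Asch.D1f
import Cfsg.Agent.Lib.Helper73.Asch.D1g
import Cfsg.Agent.Lib.Helper55.Asch.D3a
import Cfsg.Agent.Lib.Helper55.Asch.D3b
import Cfsg.Agent.Lib.Helper55.Asch.D3c
import Cfsg.Agent.Lib.Helper68.AschMain

/-!
# Adapter: the shared lemmas of helper13's campaign on the subgroups of `SL_n(q)`, in one namespace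
-/

set_option autoImplicit false

namespace Cfsg.Agent.Lib.Helper68.AschD

open Cfsg Cfsg.Geo Matrix Cfsg.Agent.Lib.Helper13.Asch
open scoped Kronecker MatrixGroups

variable {ι : Type} [Fintype ι] [DecidableEq ι] {F : Type*} [Field F]

theorem eq_inf_of_maximal {H M : Subgroup (GL ι F)} (hH : IsMaximalIn (specialLinear ι F) H)
    (hHM : H ≤ M) (hM : ¬ specialLinear ι F ≤ M) : H = M ⊓ specialLinear ι F :=
  Cfsg.Agent.Lib.Helper58.Asch.eq_inf_of_maximal hH hHM hM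

theorem sl_not_le_stab (W : Submodule F (ι → F)) (h0 : W ≠ ⊥) (h1 : W ≠ ⊤) :
    ¬ specialLinear ι F ≤ subspaceStabilizer W :=
  Cfsg.Agent.Lib.Helper58.Asch.sl_not_le_stab W h0 h1

theorem sl_not_le_decomp {t m : ℕ} (D : Fin t → Submodule F (ι → F)) (hD : IsMDecomposition m D) :
    ¬ specialLinear ι F ≤ decompositionStabilizer D :=
  Cfsg.Agent.Lib.Helper58.Asch.sl_not_le_decomp D hD

theorem sl_not_le_field (hι : 3 ≤ Fintype.card ι) {r : ℕ} (hr : r.Prime)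
    (K : Subalgebra F (Matrix ι ι F)) (hK : IsFieldSubalgebra r K) :
    ¬ specialLinear ι F ≤ subalgebraNormalizer K :=
  Cfsg.Agent.Lib.Helper58.Asch.sl_not_le_field hι hr K hK

theorem sl_not_le_subfield (hι : 2 ≤ Fintype.card ι) (F₀ : Subfield F) (hF₀ : F₀ ≠ ⊤) (P : GL ι F) :
    ¬ specialLinear ι F ≤ subfieldSubgroup F₀ P :=
  Cfsg.Agent.Lib.Helper58.Asch.sl_not_le_subfield hι F₀ hF₀ P

theorem sl_not_le_sympNormalizer [Fintype F] (hι : 3 ≤ Fintype.card ι) {r : ℕ}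
    (R : Subgroup (GL ι F)) (hR : IsLinearSymplecticTypeData r R) :
    ¬ specialLinear ι F ≤ subgroupNormalizer R :=
  Cfsg.Agent.Lib.Helper73.Asch.sl_not_le_sympNormalizer hι R hR

theorem sl_not_le_wreath_two {m : ℕ} (hm : 2 ≤ m) (e : ι ≃ (Fin 2 → Fin m)) (P : GL ι F) :
    ¬ specialLinear ι F ≤ tensorWreathSubgroup m 2 e P :=
  Cfsg.Agent.Lib.Helper73.Asch.sl_not_le_wreath_two hm e P

theorem sl_not_le_sim (hι : 3 ≤ Fintype.card ι) (f : (ι → F) → (ι → F) → F)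
    (hadd : ∀ x y v, f (x + y) v = f x v + f y v) (hnd : IsNondegenerateForm f) :
    ¬ specialLinear ι F ≤ similarityGroup f :=
  Cfsg.Agent.Lib.Helper58.Asch.sl_not_le_sim hι f hadd hnd

theorem sl_not_le_quadSim (hι : 3 ≤ Fintype.card ι) (Q : (ι → F) → F)
    (hQ : IsNondegenerateQuadraticForm Q) : ¬ specialLinear ι F ≤ quadSimilarityGroup Q :=
  Cfsg.Agent.Lib.Helper58.Asch.sl_not_le_quadSim hι Q hQ

theorem monomial_two [Fintype F] (hq : Fintype.card F = 2) {t : ℕ} (D : Fin t → Submodule F (ι → F))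
    (hD : IsMDecomposition 1 D) :
    ∃ W : Submodule F (ι → F), W ≠ ⊥ ∧ W ≠ ⊤ ∧ decompositionStabilizer D ≤ subspaceStabilizer W :=
  Cfsg.Agent.Lib.Helper55.Asch.monomial_two hq D hD

theorem monomial_three [Fintype F] (hq : Fintype.card F = 3) {t : ℕ}
    (D : Fin t → Submodule F (ι → F)) (hD : IsMDecomposition 1 D) :
    ∃ Q : (ι → F) → F, IsNondegenerateQuadraticForm Q ∧
      decompositionStabilizer D ≤ quadSimilarityGroup Q :=
  Cfsg.Agent.Lib.Helper55.Asch.monomial_three hq D hD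

theorem monomial_four [Fintype F] (hq : Fintype.card F = 4) {t : ℕ}
    (D : Fin t → Submodule F (ι → F)) (hD : IsMDecomposition 1 D) :
    ∃ (σ : F ≃+* F) (f : (ι → F) → (ι → F) → F), IsUnitaryForm σ f ∧
      decompositionStabilizer D ≤ similarityGroup f :=
  Cfsg.Agent.Lib.Helper55.Asch.monomial_four hq D hD

theorem dvd_card_of_field {r : ℕ} (K : Subalgebra F (Matrix ι ι F)) (hK : IsFieldSubalgebra r K) :
    r ∣ Fintype.card ι :=
  Cfsg.Agent.Lib.Helper58.Asch.dvd_card_of_field K hK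

theorem card_of_decomp {t m : ℕ} (D : Fin t → Submodule F (ι → F)) (hD : IsMDecomposition m D) :
    t * m = Fintype.card ι :=
  Cfsg.Agent.Lib.Helper55.Asch.card_of_decomp D hD

/-- D9 (direct unpacking of the definition) -/
theorem sympData_arith [Fintype F] {r : ℕ} (R : Subgroup (GL ι F)) (hι : 3 ≤ Fintype.card ι)
    (hR : IsLinearSymplecticTypeData r R) :
    ∃ p e : ℕ, p.Prime ∧ CharP F p ∧ Fintype.card F = p ^ e ∧ r ≠ p ∧
      ((Odd r ∧ Odd e ∧ r ∣ p ^ e - 1 ∧ ∀ d, 0 < d → d < e → ¬ r ∣ p ^ d - 1) ∨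
       (r = 2 ∧ e = 1 ∧ p % 4 = 1)) := by
  obtain ⟨p, e, hne, ⟨hp, hch, hq, hdvd, hmin⟩, hcase⟩ := hR.field
  refine ⟨p, e, hp, hch, hq, hne, ?_⟩
  rcases hcase with ⟨hor, hoe, hz, -⟩ | ⟨h2, he, hz, -, -⟩ | ⟨-, -, hc, -⟩
  · left
    rw [hz] at hdvd hmin
    exact ⟨hor, hoe, hdvd, hmin⟩
  · right
    refine ⟨h2, he, ?_⟩
    rw [hz, he, pow_one] at hdvd
    have := hp.two_le
    omega
  · omega

theorem main [Fintype F] (n : ℕ) (hn : 3 ≤ n) (H : Subgroup (GL (Fin n) F)) :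
    Cls n H ∨ InLinearResidualClass H :=
  Cfsg.Agent.Lib.Helper68.AschMain.main n hn H

end Cfsg.Agent.Lib.Helper68.AschD
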