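import Cfsg.Agent.Lib.Helper68.AschD

/-!
# Bookkeeping lemmas for the rows "maximal subgroups of `SL_n(q)`"
-/

set_option autoImplicit false

namespace Cfsg.Agent.Lib.Helper68.AschRows

open Cfsg Cfsg.Geo Matrix Cfsg.Agent.Lib.Helper13.Asch Cfsg.Agent.Lib.Helper68.AschD
open scoped Kronecker MatrixGroups

variable {ι : Type} [Fintype ι] [DecidableEq ι] {F : Type*} [Field F]

theorem subfield_ne_top [Fintype F] {F₀ : Subfield F} {r : ℕ} (hr : r.Prime)
    (hc : Fintype.card F = Nat.card F₀ ^ r) : F₀ ≠ ⊤ := by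
  rintro rfl
  have h1 : Nat.card (⊤ : Subfield F) = Fintype.card F := by
    rw [← Nat.card_eq_fintype_card]
    exact Nat.card_congr (Subfield.topEquiv (K := F)).toEquiv
  rw [h1] at hc
  have h2 : 1 < Fintype.card F := Fintype.one_lt_card
  have h3 : Fintype.card F ^ 1 < Fintype.card F ^ r := Nat.pow_lt_pow_right h2 hr.one_lt
  rw [pow_one] at h3
  omega

variable {H : Subgroup (GL ι F)}

theorem eq_stab (hH : IsMaximalIn (specialLinear ι F) H) {W : Submodule F (ι → F)} (h0 : W ≠ ⊥)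
    (h1 : W ≠ ⊤) (h : H ≤ subspaceStabilizer W) :
    H = subspaceStabilizer W ⊓ specialLinear ι F :=
  eq_inf_of_maximal hH h (sl_not_le_stab W h0 h1)

theorem eq_decomp (hH : IsMaximalIn (specialLinear ι F) H) {t m : ℕ}
    {D : Fin t → Submodule F (ι → F)} (hD : IsMDecomposition m D)
    (h : H ≤ decompositionStabilizer D) :
    H = decompositionStabilizer D ⊓ specialLinear ι F :=
  eq_inf_of_maximal hH h (sl_not_le_decomp D hD)

theorem eq_field (hι : 3 ≤ Fintype.card ι) (hH : IsMaximalIn (specialLinear ι F) H) {r : ℕ}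
    (hr : r.Prime) {K : Subalgebra F (Matrix ι ι F)} (hK : IsFieldSubalgebra r K)
    (h : H ≤ subalgebraNormalizer K) : H = subalgebraNormalizer K ⊓ specialLinear ι F :=
  eq_inf_of_maximal hH h (sl_not_le_field hι hr K hK)

theorem eq_subfield [Fintype F] (hι : 3 ≤ Fintype.card ι) (hH : IsMaximalIn (specialLinear ι F) H)
    {F₀ : Subfield F} {r : ℕ} {P : GL ι F} (hr : r.Prime) (hc : Fintype.card F = Nat.card F₀ ^ r)
    (h : H ≤ subfieldSubgroup F₀ P) : H = subfieldSubgroup F₀ P ⊓ specialLinear ι F :=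
  eq_inf_of_maximal hH h (sl_not_le_subfield (by omega) F₀ (subfield_ne_top hr hc) P)

theorem eq_symp [Fintype F] (hι : 3 ≤ Fintype.card ι) (hH : IsMaximalIn (specialLinear ι F) H)
    {r : ℕ} {R : Subgroup (GL ι F)} (hR : IsLinearSymplecticTypeData r R)
    (h : H ≤ subgroupNormalizer R) : H = subgroupNormalizer R ⊓ specialLinear ι F :=
  eq_inf_of_maximal hH h (sl_not_le_sympNormalizer hι R hR)

theorem eq_unitary (hι : 3 ≤ Fintype.card ι) (hH : IsMaximalIn (specialLinear ι F) H)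
    {σ : F ≃+* F} {f : (ι → F) → (ι → F) → F} (hf : IsUnitaryForm σ f)
    (h : H ≤ similarityGroup f) : H = similarityGroup f ⊓ specialLinear ι F :=
  eq_inf_of_maximal hH h (sl_not_le_sim hι f hf.add_left hf.nondegenerate)

theorem eq_symplectic (hι : 3 ≤ Fintype.card ι) (hH : IsMaximalIn (specialLinear ι F) H)
    {f : (ι → F) → (ι → F) → F} (hf : IsSymplecticForm f)
    (h : H ≤ similarityGroup f) : H = similarityGroup f ⊓ specialLinear ι F :=
  eq_inf_of_maximal hH h (sl_not_le_sim hι f hf.bilinear.add_left hf.nondegenerate)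

theorem eq_quad (hι : 3 ≤ Fintype.card ι) (hH : IsMaximalIn (specialLinear ι F) H)
    {Q : (ι → F) → F} (hQ : IsNondegenerateQuadraticForm Q)
    (h : H ≤ quadSimilarityGroup Q) : H = quadSimilarityGroup Q ⊓ specialLinear ι F :=
  eq_inf_of_maximal hH h (sl_not_le_quadSim hι Q hQ)

/-- the four possible outcomes for a decomposition into `1`-spaces. -/
theorem monomial_cases [Fintype F] (hι : 3 ≤ Fintype.card ι)
    (hH : IsMaximalIn (specialLinear ι F) H) {t : ℕ}
    {D : Fin t → Submodule F (ι → F)} (hD : IsMDecomposition 1 D)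
    (h : H ≤ decompositionStabilizer D) :
    (∃ W : Submodule F (ι → F), W ≠ ⊥ ∧ W ≠ ⊤ ∧ H = subspaceStabilizer W ⊓ specialLinear ι F) ∨
    (5 ≤ Fintype.card F ∧ H = decompositionStabilizer D ⊓ specialLinear ι F) ∨
    (Odd (Fintype.card F) ∧ ∃ Q : (ι → F) → F, IsNondegenerateQuadraticForm Q ∧
      H = quadSimilarityGroup Q ⊓ specialLinear ι F) ∨
    (∃ (σ : F ≃+* F) (f : (ι → F) → (ι → F) → F), IsUnitaryForm σ f ∧
      H = similarityGroup f ⊓ specialLinear ι F) := by
  have h2 : 1 < Fintype.card F := Fintype.one_lt_card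
  by_cases h5 : 5 ≤ Fintype.card F
  · exact Or.inr (Or.inl ⟨h5, eq_decomp hH hD h⟩)
  · have : Fintype.card F = 2 ∨ Fintype.card F = 3 ∨ Fintype.card F = 4 := by omega
    rcases this with hq | hq | hq
    · obtain ⟨W, h0, h1, hW⟩ := monomial_two hq D hD
      exact Or.inl ⟨W, h0, h1, eq_stab hH h0 h1 (h.trans hW)⟩
    · obtain ⟨Q, hQ, hW⟩ := monomial_three hq D hD
      exact Or.inr (Or.inr (Or.inl ⟨by rw [hq]; decide, Q, hQ, eq_quad hι hH hQ (h.trans hW)⟩))
    · obtain ⟨σ, f, hf, hW⟩ := monomial_four hq D hD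
      exact Or.inr (Or.inr (Or.inr ⟨σ, f, hf, eq_unitary hι hH hf (h.trans hW)⟩))

end Cfsg.Agent.Lib.Helper68.AschRows
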