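/-
helper68: general lemmas for BG Lemma 12.1 (S1415) and BG 10.8 (S1414).
-/
import Cfsg.Agent.Lib.Helper24.BG10c
import Cfsg.Agent.Lib.Helper24.Hall
import Cfsg.Agent.Lib.Helper1.Carter
import Cfsg.Agent.Lib.Helper47.Frat
import Cfsg.Agent.Lib.Helper22.SupLemmas

set_option autoImplicit false
set_option linter.unusedVariables false
set_option linter.unusedSectionVars false
set_option linter.style.haveILetI false

namespace Cfsg.Agent.Lib.Helper68.BG121

open Subgroup Cfsg
open scoped commutatorElement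

variable {G : Type*} [Group G]

/-- A Hall subgroup of a finite nilpotent group is normal. -/
theorem hall_normal_of_nilpotent {X : Type*} [Group X] [Finite X] [Group.IsNilpotent X]
    (H : Subgroup X) (hcop : (Nat.card H).Coprime H.index) : H.Normal := by
  have key : ∀ y ∈ normalizer ((normalizer (H : Set X) : Subgroup X) : Set X), ∀ h ∈ H,
      y * h * y⁻¹ ∈ H := by
    intro y hy h hh
    apply Cfsg.Agent.Lib.Helper24.mem_of_mem_normalizer_of_coprime_index H
    · exact (mem_normalizer_iff.1 hy h).1 (le_normalizer hh)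
    · have h1 : orderOf (y * h * y⁻¹) = orderOf h := by
        have := (MulAut.conj y).orderOf_eq h
        simpa [MulAut.conj_apply] using this
      rw [h1]
      have h2 : orderOf h ∣ Nat.card H := by
        have := orderOf_dvd_natCard (⟨h, hh⟩ : H)
        rwa [← Subgroup.orderOf_coe] at this
      exact (Nat.Coprime.of_dvd_left h2 hcop).symm
  have h1 : normalizer ((normalizer (H : Set X) : Subgroup X) : Set X) = normalizer (H : Set X) := by
    apply le_antisymm _ le_normalizer
    intro y hy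
    rw [mem_normalizer_iff]
    intro h
    refine ⟨key y hy h, fun hh => ?_⟩
    have := key y⁻¹ (inv_mem hy) _ hh
    simpa [mul_assoc] using this
  exact normalizer_eq_top_iff.1 (Cfsg.Agent.Lib.Helper1.Carter.eq_top_of_normalizer_eq h1)

/-- ambient version: a Hall subgroup `H` of a nilpotent subgroup `N` is normalized by `N_G(N)`. -/
theorem normalizer_le_normalizer_of_hall_nilpotent [Finite G] {H N : Subgroup G} (hHN : H ≤ N)
    (hN : Group.IsNilpotent N) (hcop : (Nat.card H).Coprime (H.relIndex N)) :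
    normalizer (N : Set G) ≤ normalizer (H : Set G) := by
  have hc : (Nat.card (H.subgroupOf N)).Coprime (H.subgroupOf N).index := by
    rw [Nat.card_congr (subgroupOfEquivOfLe hHN).toEquiv]; exact hcop
  haveI := hall_normal_of_nilpotent (H.subgroupOf N) hc
  haveI := Cfsg.Agent.Lib.Helper24.characteristic_of_normal_of_coprime (H.subgroupOf N) hc
  have := Cfsg.Agent.Lib.Helper47.normalizer_le_normalizer_map_of_characteristic N (H.subgroupOf N)
  rwa [map_subgroupOf_eq_of_le hHN] at this

theorem le_of_normal_of_coprime_index {X : Type*} [Group X] (H K : Subgroup X) [K.Normal]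
    (h : (Nat.card H).Coprime K.index) : H ≤ K := by
  rw [← relIndex_eq_one]
  exact Nat.eq_one_of_dvd_coprimes h (relIndex_dvd_card K H) (relIndex_dvd_index_of_normal K H)

/-- a subgroup of `M` all of whose primes have rank one in `M` is a Z-group. -/
theorem isZGroup_of_pRankLE_one [Finite G] {X M : Subgroup G} (hXM : X ≤ M) (hodd : Odd (Nat.card X))
    (h : ∀ q : ℕ, q.Prime → q ∣ Nat.card X → PRankLE q 1 M) : IsZGroup ↥X := by
  refine ⟨fun q hq Q => ?_⟩
  haveI : Fact q.Prime := ⟨hq⟩
  by_cases hqd : q ∣ Nat.card X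
  · have hq2 : q ≠ 2 := by
      rintro rfl
      exact (Nat.not_even_iff_odd.2 hodd) (even_iff_two_dvd.2 hqd)
    apply Cfsg.Agent.Lib.Helper24.isCyclic_of_pRankLE_one hq2 Q.2
    exact Cfsg.Agent.Lib.Helper23.pRankLE_of_injective q 1
      ((Subgroup.inclusion hXM).comp (Q : Subgroup X).subtype)
      ((Subgroup.inclusion_injective hXM).comp (Subgroup.subtype_injective _)) (h q hq hqd)
  · obtain ⟨k, hk⟩ := IsPGroup.iff_card.1 Q.2
    have hk0 : k = 0 := by
      by_contra hne
      apply hqd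
      have h1 : q ∣ Nat.card Q := by rw [hk]; exact dvd_pow_self q hne
      exact h1.trans (Subgroup.card_subgroup_dvd_card _)
    rw [hk0, pow_zero] at hk
    haveI : Subsingleton Q := (Nat.card_eq_one_iff_unique.1 hk).1
    exact isCyclic_of_subsingleton

theorem isNilpotent_of_injective {A B : Type*} [Group A] [Group B] [Group.IsNilpotent B] (f : A →* B)
    (hf : Function.Injective f) : Group.IsNilpotent A :=
  (Group.isNilpotent_congr (MonoidHom.ofInjective hf)).2 inferInstance

/-- `M' ≤ N E'` when `M = E N`, `N` normal in `M`. -/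
theorem commutator_le_sup_of_compl {M E N : Subgroup G} (hE : E ≤ M)
    (hN : M ≤ normalizer (N : Set G)) (hfac : ∀ m ∈ M, ∃ a ∈ E, ∃ b ∈ N, m = a * b) :
    ⁅M, M⁆ ≤ N ⊔ ⁅E, E⁆ := by
  have hnE : ⁅E, E⁆ ≤ normalizer (N : Set G) :=
    ((commutator_mono hE hE).trans (commutator_le_self M)).trans hN
  rw [commutator_le]
  intro x hx y hy
  obtain ⟨a, ha, b, hb, rfl⟩ := hfac x hx
  obtain ⟨c, hc, d, hd, rfl⟩ := hfac y hy
  rw [Cfsg.Agent.Lib.Helper22.mem_sup_of_le_normalizer hnE]
  refine ⟨⁅a * b, c * d⁆ * ⁅a, c⁆⁻¹, ?_, ⁅a, c⁆, commutator_mem_commutator ha hc, by group⟩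
  have cj : ∀ g ∈ M, ∀ n ∈ N, g * n * g⁻¹ ∈ N := fun g hg n hn => (mem_normalizer_iff.1 (hN hg) n).1 hn
  have haM := hE ha
  have hcM := hE hc
  -- explicit computation
  have e : ⁅a * b, c * d⁆ * ⁅a, c⁆⁻¹ =
      (a * b * a⁻¹) * ((a * c) * d * (a * c)⁻¹) * ((a * c * a⁻¹) * (a * b⁻¹ * a⁻¹) * (a * c * a⁻¹)⁻¹)
        * ((a * c * a⁻¹ * c⁻¹) * (c * d⁻¹ * c⁻¹) * (a * c * a⁻¹ * c⁻¹)⁻¹) := by
    simp only [commutatorElement_def]; group
  rw [e]
  have hac : a * c ∈ M := mul_mem haM hcM
  refine mul_mem (mul_mem (mul_mem (cj a haM b hb) (cj _ hac d hd)) ?_) ?_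
  · exact cj _ (mul_mem hac (inv_mem haM)) _ (cj a haM _ (inv_mem hb))
  · exact cj _ (mul_mem (mul_mem hac (inv_mem haM)) (inv_mem hcM)) _ (cj c hcM _ (inv_mem hd))

end Cfsg.Agent.Lib.Helper68.BG121
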