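/-
helper68: reduction (Part A) of BG 3.6 (statement S1444) to the core theorem `bg36_core` of helper24.
This file: general lemmas (hypothesis passes to quotients, transfer of `p`-length one).
-/
import Cfsg.Agent.Lib.Helper24.BGSolv
import Cfsg.Agent.Lib.Helper24.Rank2Solv
import Cfsg.Agent.Lib.Helper63.PLength2
import Cfsg.Agent.Lib.Helper22.CoprimeP
import Cfsg.Agent.Lib.Helper22.SupLemmas
import Cfsg.Agent.Lib.Helper2.PGroupFrattini
import Cfsg.Agent.S0022

set_option autoImplicit false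
set_option linter.unusedVariables false
set_option linter.unusedSectionVars false
set_option linter.style.haveILetI false

namespace Cfsg.Agent.Lib.Helper68.BG36

open Subgroup Cfsg
open scoped commutatorElement

variable {G : Type*} [Group G]

/-- The hypothesis of BG 3.6. -/
structure Hyp (H R R₀ : Subgroup G) : Prop where
  normal : H.Normal
  hall : (Nat.card H).Coprime H.index
  compl : Subgroup.IsComplement' H R
  le : R₀ ≤ R
  prime : (Nat.card R₀).Prime
  z : IsZGroup ↥(H ⊓ Subgroup.centralizer (R₀ : Set G))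

namespace Hyp

variable {H R R₀ : Subgroup G}

theorem card_R (h : Hyp H R R₀) : Nat.card R = H.index :=
  (h.compl.symm.index_eq_card).symm

theorem coprime (h : Hyp H R R₀) : (Nat.card R).Coprime (Nat.card H) := by
  rw [h.card_R]; exact h.hall.symm

theorem coprime₀ (h : Hyp H R R₀) : (Nat.card R₀).Coprime (Nat.card H) :=
  Nat.Coprime.of_dvd_left (Subgroup.card_dvd_of_le h.le) h.coprime

theorem inf_eq_bot (h : Hyp H R R₀) : H ⊓ R = ⊥ := h.compl.disjoint.eq_bot

theorem sup_eq_top (h : Hyp H R R₀) : H ⊔ R = ⊤ := h.compl.sup_eq_top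

end Hyp

theorem card_map_of_ker_inf {G' : Type*} [Group G'] (f : G →* G') (K : Subgroup G)
    (h : f.ker ⊓ K = ⊥) : Nat.card (K.map f) = Nat.card K := by
  rw [← Subgroup.relIndex_ker, ← Subgroup.inf_relIndex_right, h, Subgroup.relIndex_bot_left]

/-- `C_{H/N}(R₀) = C_H(R₀) N / N`. -/
theorem map_inf_centralizer [Finite G] [Group.IsSolvable G] {G' : Type*} [Group G']
    {H A : Subgroup G} [H.Normal] (hcop : (Nat.card A).Coprime (Nat.card H))
    (f : G →* G') (hker : f.ker ≤ H) :
    (H ⊓ centralizer (A : Set G)).map f = H.map f ⊓ centralizer ((A.map f : Subgroup G') : Set G') := by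
  apply le_antisymm
  · rintro _ ⟨x, hx, rfl⟩
    obtain ⟨hxH, hxC⟩ := mem_inf.1 hx
    refine mem_inf.2 ⟨mem_map_of_mem f hxH, ?_⟩
    rw [mem_centralizer_iff]
    rintro _ ⟨a, ha, rfl⟩
    rw [← map_mul, ← map_mul, mem_centralizer_iff.1 hxC a ha]
  · intro y hy
    obtain ⟨hy1, hC⟩ := mem_inf.1 hy
    obtain ⟨k, hk, rfl⟩ := hy1
    obtain ⟨c, hc, hkc⟩ := Cfsg.Agent.S0022.result A H le_normalizer_of_normal hcop
      (Or.inr inferInstance) f.ker hker le_normalizer_of_normal le_normalizer_of_normal k hk (by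
        intro a ha
        rw [MonoidHom.mem_ker]
        have := mem_centralizer_iff.1 hC (f a) ⟨a, ha, rfl⟩
        rw [map_mul, map_mul, map_mul, map_inv, map_inv, this]
        group)
    refine ⟨c, hc, ?_⟩
    rw [MonoidHom.mem_ker, map_mul, map_inv] at hkc
    exact (inv_mul_eq_one.1 hkc).symm

/-- A1: the hypothesis passes to quotients by normal subgroups contained in `H`. -/
theorem Hyp.map [Finite G] [Group.IsSolvable G] {G' : Type*} [Group G'] {H R R₀ : Subgroup G}
    (h : Hyp H R R₀) (f : G →* G') (hf : Function.Surjective f) (hker : f.ker ≤ H) :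
    Hyp (H.map f) (R.map f) (R₀.map f) := by
  haveI := h.normal
  haveI : Finite G' := Finite.of_surjective f hf
  have hidx : (H.map f).index = H.index := Subgroup.index_map_eq H hf hker
  have hkR : f.ker ⊓ R = ⊥ := by
    rw [eq_bot_iff, ← h.inf_eq_bot]; exact inf_le_inf_right R hker
  have hkR₀ : f.ker ⊓ R₀ = ⊥ := by
    rw [eq_bot_iff, ← hkR]; exact inf_le_inf_left _ h.le
  have hcR : Nat.card (R.map f) = Nat.card R := card_map_of_ker_inf f R hkR
  have hcop : (Nat.card (H.map f)).Coprime H.index :=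
    Nat.Coprime.of_dvd_left (Subgroup.card_map_dvd H f) h.hall
  refine ⟨Subgroup.Normal.map h.normal f hf, by rw [hidx]; exact hcop, ?_, Subgroup.map_mono h.le, ?_, ?_⟩
  · apply Subgroup.isComplement'_of_coprime
    · rw [hcR, h.card_R, ← hidx]; exact Subgroup.card_mul_index _
    · rw [hcR, h.card_R]; exact hcop
  · rw [card_map_of_ker_inf f R₀ hkR₀]; exact h.prime
  · rw [← map_inf_centralizer h.coprime₀ f hker]
    haveI := h.z
    exact IsZGroup.of_surjective (f := f.subgroupMap (H ⊓ centralizer (R₀ : Set G)))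
      (f.subgroupMap_surjective _)

theorem conj_commutator_mem {H R : Subgroup G} {g h r : G} (hg : g ∈ H) (hh : h ∈ H) (hr : r ∈ R) :
    g * ⁅h, r⁆ * g⁻¹ ∈ ⁅H, R⁆ := by
  have e : g * ⁅h, r⁆ * g⁻¹ = ⁅g * h, r⁆ * ⁅g, r⁆⁻¹ := by
    simp only [commutatorElement_def]; group
  rw [e]
  exact mul_mem (commutator_mem_commutator (mul_mem hg hh) hr)
    (inv_mem (commutator_mem_commutator hg hr))

/-- `[H,R]` is normal in `G = HR`. -/
theorem commutator_normal_of_sup {H R : Subgroup G} [H.Normal] (hs : H ⊔ R = ⊤) : (⁅H, R⁆).Normal := by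
  rw [← normalizer_eq_top_iff, eq_top_iff, ← hs]
  apply sup_le
  · rw [le_normalizer_iff]
    intro g hg
    suffices h : ⁅H, R⁆ ≤ (⁅H, R⁆).comap (MulAut.conj g).toMonoidHom from fun x hx => h hx
    rw [commutator_le]
    intro h hh r hr
    exact conj_commutator_mem hg hh hr
  · intro a ha
    rw [mem_normalizer_iff_map_conj_eq, map_commutator,
      mem_normalizer_iff_map_conj_eq.mp (le_normalizer_of_normal (H := H) ha),
      mem_normalizer_iff_map_conj_eq.mp (le_normalizer ha)]

theorem Hyp.commutator_normal {H R R₀ : Subgroup G} (h : Hyp H R R₀) : (⁅H, R⁆).Normal := by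
  haveI := h.normal
  exact commutator_normal_of_sup h.sup_eq_top

theorem commutator_le_left_of_normal (H R : Subgroup G) [H.Normal] : ⁅H, R⁆ ≤ H :=
  Subgroup.commutator_le_left H R

/-! ### transfer of `p`-length one -/

open Cfsg.Agent.Lib.Helper63 in
theorem card_ker_subgroupMap {G' : Type*} [Group G'] (f : G →* G') (L : Subgroup G) :
    Nat.card (f.subgroupMap L).ker = Nat.card (f.ker ⊓ L : Subgroup G) := by
  have e : (f.subgroupMap L).ker = (f.ker ⊓ L).subgroupOf L := by
    ext x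
    rw [MonoidHom.mem_ker, mem_subgroupOf, mem_inf, MonoidHom.mem_ker]
    constructor
    · intro hx
      exact ⟨congrArg Subtype.val hx, x.2⟩
    · intro hx
      exact Subtype.ext hx.1
  rw [e]
  exact Nat.card_congr (subgroupOfEquivOfLe inf_le_right).toEquiv

open Cfsg.Agent.Lib.Helper63 in
/-- A2: kernel of order prime to `p`. -/
theorem pl_of_map_coprime [Finite G] {G' : Type*} [Group G'] {p : ℕ} (hp : p.Prime) (f : G →* G')
    (L : Subgroup G) (hk : (Nat.card (f.ker ⊓ L : Subgroup G)).Coprime p)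
    (h : PLengthLE p 1 ↥(L.map f)) : PLengthLE p 1 ↥L := by
  haveI : Finite ↥(L.map f) := Finite.of_surjective _ (f.subgroupMap_surjective L)
  have h0 : PLengthLE p 0 (f.subgroupMap L).ker := by
    apply pLengthLE_zero_of_coprime
    rw [card_ker_subgroupMap]; exact hk
  have e := QuotientGroup.quotientKerEquivOfSurjective (f.subgroupMap L) (f.subgroupMap_surjective L)
  have h1 : PLengthLE p 1 (↥L ⧸ (f.subgroupMap L).ker) :=
    PLengthLE.of_surjective hp e.symm.toMonoidHom e.symm.surjective h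
  have := PLengthLE.extension hp (f.subgroupMap L).ker h0 h1
  simpa using this

open Cfsg.Agent.Lib.Helper63 in
/-- A3: kernel a `p`-group and `O_{p'}` of the image trivial. -/
theorem pl_of_map_pgroup [Finite G] {G' : Type*} [Group G'] {p : ℕ} [hp : Fact p.Prime] (f : G →* G')
    (L : Subgroup G) (hk : IsPGroup p (f.ker ⊓ L : Subgroup G))
    (h0 : pPrimeCore p ↥(L.map f) = ⊥)
    (h : PLengthLE p 1 ↥(L.map f)) : PLengthLE p 1 ↥L := by
  haveI : Finite ↥(L.map f) := Finite.of_surjective _ (f.subgroupMap_surjective L)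
  have h1 : ups p ↥(L.map f) 1 = ⊥ := by rw [ups_one_eq hp.out, h0]
  have h3 : ups p ↥(L.map f) 3 = ⊤ := h
  obtain ⟨m, hm⟩ := (ups_stepOK (G := ↥(L.map f)) hp.out 1).2 (by decide)
  have h2 := (ups_stepOK (G := ↥(L.map f)) hp.out 2).1 (by decide)
  rw [h1, relIndex_bot_left] at hm
  rw [h3, relIndex_top_right] at h2
  have hU : IsPGroup p (ups p ↥(L.map f) 2) := IsPGroup.of_card hm
  have hker : IsPGroup p (f.subgroupMap L).ker := by
    obtain ⟨k, hk'⟩ := hk.exists_card_eq
    apply IsPGroup.of_card (n := k)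
    rw [card_ker_subgroupMap]; exact hk'
  have hS : IsPGroup p ((ups p ↥(L.map f) 2).comap (f.subgroupMap L)) :=
    hU.comap_of_ker_isPGroup _ hker
  obtain ⟨k, hk'⟩ := hS.exists_card_eq
  apply Cfsg.Agent.Lib.Helper24.pLengthLE_one_of_chain hp.out ⊥
    ((ups p ↥(L.map f) 2).comap (f.subgroupMap L))
  · simp
  · exact ⟨k, by rw [relIndex_bot_left]; exact hk'⟩
  · rw [index_comap_of_surjective _ (f.subgroupMap_surjective L)]; exact h2

/-! ### Hall–Higman 1.2.3 in ambient form -/

theorem amb_of_centralizer_le {H : Subgroup G} {K : Subgroup ↥H}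
    (h : centralizer (K : Set ↥H) ≤ K) :
    H ⊓ centralizer ((K.map H.subtype : Subgroup G) : Set G) ≤ K.map H.subtype := by
  rintro x ⟨hxH, hxC⟩
  refine ⟨⟨x, hxH⟩, h ?_, rfl⟩
  rw [mem_centralizer_iff]
  intro y hy
  apply Subtype.ext
  exact mem_centralizer_iff.1 hxC y.1 ⟨y, hy, rfl⟩

theorem hh_amb [Finite G] [Group.IsSolvable G] (H : Subgroup G) [H.Normal] (p : ℕ) [Fact p.Prime]
    (h : pPrimeCore p G ⊓ H = ⊥) :
    H ⊓ centralizer ((pCore p G ⊓ H : Subgroup G) : Set G) ≤ pCore p G ⊓ H := by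
  have h1 : pPrimeCore p ↥H = ⊥ := by
    have := Cfsg.Agent.Lib.Lead.pPrimeCore_normal_subgroup_eq (p := p) H
    rw [h] at this
    exact (map_eq_bot_iff_of_injective _ H.subtype_injective).1 this
  have h2 := amb_of_centralizer_le (Cfsg.Agent.Lib.Helper24.centralizer_pCore_le_of_solvable (H := ↥H) p h1)
  rwa [Cfsg.Agent.Lib.Lead.pCore_normal_subgroup_eq] at h2

/-- the dual statement: `O_p = 1` implies `C(O_{p'}) ≤ O_{p'}`. -/
theorem centralizer_pPrimeCore_le {X : Type*} [Group X] [Finite X] [Group.IsSolvable X]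
    (p : ℕ) [Fact p.Prime] (hcore : pCore p X = ⊥) :
    centralizer (pPrimeCore p X : Set X) ≤ pPrimeCore p X := by
  have hp : p.Prime := Fact.out
  have hF : fittingSubgroup X ≤ pPrimeCore p X := by
    rw [Cfsg.Agent.S0009.result]
    apply iSup_le
    intro q
    by_cases hq : (q : ℕ) = p
    · rw [hq, hcore]; exact bot_le
    · apply Cfsg.Agent.Lib.Lead.le_pPrimeCore inferInstance
      haveI : Fact (q : ℕ).Prime := ⟨q.2⟩
      obtain ⟨n, hn⟩ := IsPGroup.iff_card.1 (Cfsg.Agent.Lib.Lead.pCore_isPGroup (q : ℕ) X)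
      rw [hn]
      exact Nat.Coprime.pow_left n ((Nat.coprime_primes q.2 hp).2 hq)
  exact ((centralizer_le (by exact_mod_cast hF)).trans (Cfsg.Agent.S0044.result (G := X))).trans hF

theorem hh'_amb [Finite G] [Group.IsSolvable G] (H : Subgroup G) [H.Normal] (p : ℕ) [Fact p.Prime]
    (h : pCore p G ⊓ H = ⊥) :
    H ⊓ centralizer ((pPrimeCore p G ⊓ H : Subgroup G) : Set G) ≤ pPrimeCore p G ⊓ H := by
  have h1 : pCore p ↥H = ⊥ := by
    have := Cfsg.Agent.Lib.Lead.pCore_normal_subgroup_eq (p := p) H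
    rw [h] at this
    exact (map_eq_bot_iff_of_injective _ H.subtype_injective).1 this
  have h2 := amb_of_centralizer_le (centralizer_pPrimeCore_le (X := ↥H) p h1)
  rwa [Cfsg.Agent.Lib.Lead.pPrimeCore_normal_subgroup_eq] at h2

/-! ### Burnside: `p'`-automorphisms acting trivially on the Frattini quotient -/

/-- ambient Frattini subgroup -/
abbrev Frat (T : Subgroup G) : Subgroup G := (frattini ↥T).map T.subtype

theorem Frat_le (T : Subgroup G) : Frat T ≤ T := map_subtype_le _

instance Frat_normal (T : Subgroup G) [T.Normal] : (Frat T).Normal :=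
  Cfsg.Agent.Lib.Lead.normal_map_subtype_of_characteristic T _

theorem burnside_amb [Finite G] {p q : ℕ} [Fact p.Prime] [Fact q.Prime] (hqp : q ≠ p)
    (T : Subgroup G) [T.Normal] (hT : IsPGroup p T) (A : Subgroup G) (hA : IsPGroup q A)
    (hact : ∀ g ∈ T, ∀ a ∈ A, g⁻¹ * (a * g * a⁻¹) ∈ Frat T) :
    T ≤ centralizer (A : Set G) := by
  have hp : p.Prime := Fact.out
  have hq : q.Prime := Fact.out
  have hΦq : ¬ q ∣ Nat.card (Frat T) := by
    obtain ⟨m, hm⟩ := (hT.to_le (Frat_le T)).exists_card_eq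
    rw [hm]
    intro h
    exact hqp ((Nat.prime_dvd_prime_iff_eq hq hp).1 (hq.dvd_of_dvd_pow h))
  have htop : ((T ⊓ centralizer (A : Set G)).subgroupOf T) ⊔ frattini ↥T = ⊤ := by
    rw [eq_top_iff]
    rintro ⟨g, hg⟩ -
    obtain ⟨n, hn, hgn⟩ := Cfsg.Agent.Lib.Helper22.exists_fixed_in_coset A (Frat T) hA hΦq
      le_normalizer_of_normal g (hact g hg)
    obtain ⟨n₀, hn₀, rfl⟩ := hn
    have e : (⟨g, hg⟩ : ↥T) = (⟨g, hg⟩ * n₀) * n₀⁻¹ := by group
    rw [e]
    apply mul_mem_sup
    · rw [mem_subgroupOf]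
      exact mem_inf.2 ⟨(⟨g, hg⟩ * n₀ : ↥T).2, hgn⟩
    · exact inv_mem hn₀
  have h2 := frattini_nongenerating htop
  rw [subgroupOf_eq_top] at h2
  exact h2.trans inf_le_right

theorem isElementaryAbelian_of_Frat_eq_bot [Finite G] {p : ℕ} [Fact p.Prime] (T : Subgroup G)
    (hT : IsPGroup p T) (h : Frat T = ⊥) : IsElementaryAbelian p T := by
  have h1 : frattini ↥T = ⊥ := (map_eq_bot_iff_of_injective _ T.subtype_injective).1 h
  constructor
  · refine ⟨⟨fun a b => ?_⟩⟩
    have := Cfsg.Agent.Lib.Helper2.commutator_le_frattini hT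
      (commutator_mem_commutator (mem_top a) (mem_top b))
    rw [h1, mem_bot] at this
    exact commutatorElement_eq_one_iff_mul_comm.1 this
  · intro a ha
    have := Cfsg.Agent.Lib.Helper2.pow_p_mem_frattini hT ⟨a, ha⟩
    rw [h1, mem_bot] at this
    exact congrArg Subtype.val this

end Cfsg.Agent.Lib.Helper68.BG36
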